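import Cfsg.Agent.Lib.Helper85.USim.Defs
import Cfsg.Agent.Lib.Helper45.HermGU

/-!
# USIM (S5982), package [IDX]
-/

set_option autoImplicit false
open scoped MatrixGroups

namespace Cfsg.Agent.Lib.Helper65.USim

open Cfsg.Agent.Lib.Helper85.USim

universe u

/-- for a normal subgroup `K` of a finite group, `[K : H ⊓ K]` divides `[G : H]` -/
theorem relIndex_dvd_index_of_normal_right {G : Type*} [Group G] [Finite G] (H K : Subgroup G)
    [K.Normal] : H.relIndex K ∣ H.index := by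
  have h1 := Subgroup.relIndex_mul_relIndex (H ⊓ K) H (H ⊔ K) inf_le_left le_sup_left
  have h2 := Subgroup.relIndex_mul_relIndex (H ⊓ K) K (H ⊔ K) inf_le_right le_sup_right
  rw [Subgroup.inf_relIndex_left] at h1
  rw [Subgroup.inf_relIndex_right, Subgroup.relIndex_sup_right] at h2
  have h3 : K.relIndex H * H.relIndex (H ⊔ K) = K.relIndex H * H.relIndex K := by
    rw [h1, ← h2, mul_comm]
  have h4 : K.relIndex H ≠ 0 := Subgroup.index_ne_zero_of_finite
  have h5 : H.relIndex (H ⊔ K) = H.relIndex K :=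
    Nat.eq_of_mul_eq_mul_left (Nat.pos_of_ne_zero h4) h3
  rw [← h5]
  exact Subgroup.relIndex_dvd_index_of_le le_sup_left

theorem gu_le_hu {F : Type u} [Field F] (n q₀ : ℕ) : Cfsg.GU n F q₀ ≤ HU n F q₀ := by
  intro g hg
  refine ⟨1, fun u v => ?_⟩
  rw [Units.val_one, one_mul]
  exact hg u v

theorem gl_card_factor (q n : ℕ) (hq : 1 ≤ q) :
    ∏ i : Fin n, ((q ^ 2) ^ n - (q ^ 2) ^ (i : ℕ)) =
      (q ^ (n * (n - 1) / 2) *
        ∏ i ∈ Finset.range n, (if Even i then q ^ (i + 1) + 1 else q ^ (i + 1) - 1)) *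
      (q ^ (n * (n - 1) / 2) *
        ∏ i ∈ Finset.range n, (if Even i then q ^ (i + 1) - 1 else q ^ (i + 1) + 1)) := by
  rw [Fin.prod_univ_eq_prod_range (fun i => (q ^ 2) ^ n - (q ^ 2) ^ i) n]
  have h1 : ∀ i ∈ Finset.range n,
      (q ^ 2) ^ n - (q ^ 2) ^ i = (q ^ i * q ^ i) * ((q ^ 2) ^ (n - i) - 1) := by
    intro i hi
    have hi' := Finset.mem_range.mp hi
    have e1 : (q ^ 2) ^ n = (q ^ 2) ^ i * (q ^ 2) ^ (n - i) := by
      rw [← pow_add]
      congr 1
      omega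
    have e2 : q ^ i * q ^ i = (q ^ 2) ^ i := by ring
    rw [e1, e2, Nat.mul_sub_one]
  have h2 : ∏ i ∈ Finset.range n, ((q ^ 2) ^ (n - i) - 1) =
      ∏ i ∈ Finset.range n, ((q ^ 2) ^ (i + 1) - 1) := by
    rw [← Finset.prod_range_reflect (fun i => (q ^ 2) ^ (i + 1) - 1) n]
    refine Finset.prod_congr rfl fun i hi => ?_
    have hi' := Finset.mem_range.mp hi
    have e : n - 1 - i + 1 = n - i := by omega
    rw [e]
  have h3 : ∀ i ∈ Finset.range n, (q ^ 2) ^ (i + 1) - 1 =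
      (if Even i then q ^ (i + 1) + 1 else q ^ (i + 1) - 1) *
        (if Even i then q ^ (i + 1) - 1 else q ^ (i + 1) + 1) := by
    intro i _
    have hx : 1 ≤ q ^ (i + 1) := Nat.one_le_pow _ _ hq
    have e : (q ^ 2) ^ (i + 1) = q ^ (i + 1) * q ^ (i + 1) := by ring
    rw [e]
    generalize q ^ (i + 1) = x at hx
    obtain ⟨y, rfl⟩ : ∃ y, x = y + 1 := ⟨x - 1, by omega⟩
    have e2 : (y + 1) * (y + 1) - 1 = (y + 1 + 1) * (y + 1 - 1) := by
      rw [Nat.add_sub_cancel]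
      have : (y + 1) * (y + 1) = (y + 1 + 1) * y + 1 := by ring
      rw [this, Nat.add_sub_cancel]
    split_ifs
    · rw [e2]
    · rw [e2, mul_comm]
  rw [Finset.prod_congr rfl h1, Finset.prod_mul_distrib, Finset.prod_mul_distrib, h2,
    Finset.prod_congr rfl h3, Finset.prod_mul_distrib, Finset.prod_pow_eq_pow_sum,
    Finset.sum_range_id]
  ring

/-- Package [IDX] -/
theorem pIdx : PIdx.{u} := by
  intro F _ _ q₀ n r _ hF hq hr
  classical
  have hrp : r.Prime := Fact.out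
  have hq1 : 1 ≤ q₀ := by
    rcases Nat.eq_zero_or_pos q₀ with h | h
    · exfalso
      apply hq
      rw [h]
      simp
    · exact h
  have h1 : r ∣ (Cfsg.GU n F q₀).index := by
    have hn : (SLn n F).Normal := by
      unfold SLn Cfsg.Geo.specialLinear
      infer_instance
    exact (hr.trans (Subgroup.relIndex_dvd_of_le_left _ (gu_le_hu n q₀))).trans
      (relIndex_dvd_index_of_normal_right _ _)
  have h2 := Subgroup.card_mul_index (Cfsg.GU n F q₀)
  rw [Cfsg.Agent.Lib.Helper45.card_GU hF n, Matrix.card_GL_field, hF,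
    gl_card_factor q₀ n hq1] at h2
  have hApos : 0 < q₀ ^ (n * (n - 1) / 2) *
      ∏ i ∈ Finset.range n, (if Even i then q₀ ^ (i + 1) + 1 else q₀ ^ (i + 1) - 1) := by
    refine Nat.mul_pos (Nat.pow_pos hq1) (Finset.prod_pos fun i _ => ?_)
    have hq2 : 2 ≤ q₀ := by
      have hc := Fintype.one_lt_card (α := F)
      rw [hF] at hc
      by_contra hlt
      have h1' : q₀ = 1 := by omega
      rw [h1'] at hc
      norm_num at hc
    have hx : 2 ≤ q₀ ^ (i + 1) := by
      calc 2 ≤ q₀ := hq2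
        _ = q₀ ^ 1 := (pow_one _).symm
        _ ≤ q₀ ^ (i + 1) := Nat.pow_le_pow_right hq1 (by omega)
    split_ifs <;> omega
  have h3 : (Cfsg.GU n F q₀).index = q₀ ^ (n * (n - 1) / 2) *
      ∏ i ∈ Finset.range n, (if Even i then q₀ ^ (i + 1) - 1 else q₀ ^ (i + 1) + 1) :=
    Nat.eq_of_mul_eq_mul_left hApos h2
  rw [h3] at h1
  have hrq : ¬ r ∣ q₀ := fun h => hq ((ZMod.natCast_eq_zero_iff q₀ r).mpr h)
  have h4 : r ∣ ∏ i ∈ Finset.range n,
      (if Even i then q₀ ^ (i + 1) - 1 else q₀ ^ (i + 1) + 1) := by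
    rcases (Nat.Prime.dvd_mul hrp).mp h1 with h | h
    · exact absurd (hrp.dvd_of_dvd_pow h) hrq
    · exact h
  obtain ⟨i, hi, hdvd⟩ := (Prime.dvd_finsetProd_iff hrp.prime _).mp h4
  have hi' := Finset.mem_range.mp hi
  refine ⟨i + 1, by omega, by omega, ?_⟩
  have hx : 1 ≤ q₀ ^ (i + 1) := Nat.one_le_pow _ _ hq1
  split_ifs at hdvd with he
  · have h5 := (ZMod.natCast_eq_zero_iff _ r).mpr hdvd
    rw [Nat.cast_sub hx, Nat.cast_pow, Nat.cast_one, sub_eq_zero] at h5
    rw [Odd.neg_pow (Even.add_one he), h5]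
  · have h5 := (ZMod.natCast_eq_zero_iff _ r).mpr hdvd
    rw [Nat.cast_add, Nat.cast_pow, Nat.cast_one] at h5
    have ho : Even (i + 1) := by
      rw [Nat.even_add_one]
      exact he
    rw [Even.neg_pow ho]
    exact eq_neg_of_add_eq_zero_left h5

end Cfsg.Agent.Lib.Helper65.USim
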